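import Cfsg.Agent.H376.Cyc.Def
import Cfsg.Agent.H377.ToOmega
import Cfsg.Agent.S0293
import Cfsg.Agent.S0294

/-!
# S3441, T-NA4 (helper379): `NA` for the even-dimensional orthogonal groups

`na_oplus`, `na_ominus` : a prime `p ≥ 5` such that the Sylow `p`-subgroups of `PΩ^±_{2m}(q)` are not cyclic is adjacent
to `2`.
-/

set_option autoImplicit false

namespace Cfsg.Agent.H379.Cyc

open Cfsg Cfsg.Agent.H376.Cyc Cfsg.Agent.H377

/-- an element whose order is the `p`-part generates a cyclic Sylow subgroup -/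
theorem exists_cyc_sylow {T : Type*} [Group T] [Finite T] {p N : ℕ} (hp : p.Prime)
    (h : (Nat.card T).factorization p ≤ N.factorization p)
    (hg : ∃ g : T, orderOf g = p ^ N.factorization p) : ∃ P : Sylow p T, IsCyclic ↥P := by
  have := Fact.mk hp
  obtain ⟨g, hg⟩ := hg
  have h1 : p ^ N.factorization p ∣ Nat.card T := by
    rw [← hg]
    exact orderOf_dvd_natCard g
  have h2 : N.factorization p ≤ (Nat.card T).factorization p :=
    (hp.pow_dvd_iff_le_factorization Nat.card_pos.ne').1 h1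
  refine ⟨Sylow.ofCard (Subgroup.zpowers g) ?_, ?_⟩
  · rw [Nat.card_zpowers, hg, le_antisymm h h2]
  · exact inferInstanceAs (IsCyclic ↥(Subgroup.zpowers g))

theorem pow_sub_ne {q k : ℕ} (hq : 2 ≤ q) (hk : k ≠ 0) : q ^ k - 1 ≠ 0 := by
  have := Nat.one_lt_pow hk (show 1 < q by omega)
  omega

theorem sub_one_mul_add_one (q k : ℕ) : q ^ (2 * k) - 1 = (q ^ k - 1) * (q ^ k + 1) := by
  rw [mul_comm 2 k, pow_mul, pow_two]
  have h := Nat.mul_self_sub_mul_self_eq (q ^ k) 1
  rw [mul_one] at h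
  rw [h, mul_comm]

theorem dvd_pow_sub_one_iff {p q k : ℕ} (hq : 1 ≤ q) : p ∣ q ^ k - 1 ↔ (q : ZMod p) ^ k = 1 := by
  rw [← ZMod.natCast_eq_zero_iff, Nat.cast_sub (Nat.one_le_pow _ _ hq), Nat.cast_pow, Nat.cast_one, sub_eq_zero]

/-- the arithmetic -/
theorem fac_le {p q m A N d : ℕ} (hp : p.Prime) (hq : 2 ≤ q) (hpq : ¬ p ∣ q) (hm : 4 ≤ m) (hp2 : p ≠ 2)
    (hno : ∀ j, 1 ≤ j → j ≤ m - 2 → ¬ p ∣ q ^ (2 * j) - 1) (hA : p ∣ A → p ∣ q ^ (2 * m) - 1) (hA0 : A ≠ 0)
    (hd : d ≠ 0) (h : d * N = q ^ (m * (m - 1)) * A * ∏ i ∈ Finset.range (m - 1), (q ^ (2 * (i + 1)) - 1))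
    (hpN : p ∣ N) (hN0 : N ≠ 0) :
    (p ∣ A ∧ N.factorization p ≤ A.factorization p) ∨
    N.factorization p ≤ (q ^ (m - 1) - 1).factorization p ∨
    N.factorization p ≤ (q ^ (m - 1) + 1).factorization p := by
  have hB0 : q ^ (m - 1) - 1 ≠ 0 := pow_sub_ne hq (by omega)
  have hC0 : q ^ (m - 1) + 1 ≠ 0 := Nat.succ_ne_zero _
  have hprod : ∏ i ∈ Finset.range (m - 1), (q ^ (2 * (i + 1)) - 1) =
      (∏ i ∈ Finset.range (m - 2), (q ^ (2 * (i + 1)) - 1)) * ((q ^ (m - 1) - 1) * (q ^ (m - 1) + 1)) := by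
    rw [show m - 1 = (m - 2) + 1 by omega, Finset.prod_range_succ, sub_one_mul_add_one]
  set R := ∏ i ∈ Finset.range (m - 2), (q ^ (2 * (i + 1)) - 1) with hR
  have hR0 : R ≠ 0 := Finset.prod_ne_zero_iff.2 fun i _ => pow_sub_ne hq (by omega)
  have hpR : ¬ p ∣ R := by
    intro h1
    obtain ⟨i, hi, h2⟩ := (hp.prime.dvd_finsetProd_iff _).1 h1
    rw [Finset.mem_range] at hi
    exact hno (i + 1) (by omega) (by omega) h2
  have hq0 : q ^ (m * (m - 1)) ≠ 0 := pow_ne_zero _ (by omega)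
  have hpq' : ¬ p ∣ q ^ (m * (m - 1)) := fun h1 => hpq (hp.dvd_of_dvd_pow h1)
  have hfac : N.factorization p ≤ A.factorization p + ((q ^ (m - 1) - 1).factorization p +
      (q ^ (m - 1) + 1).factorization p) := by
    have h1 := congrArg (fun x : ℕ => x.factorization p) h
    rw [hprod, Nat.factorization_mul hd hN0,
      Nat.factorization_mul (mul_ne_zero hq0 hA0) (mul_ne_zero hR0 (mul_ne_zero hB0 hC0)),
      Nat.factorization_mul hq0 hA0, Nat.factorization_mul hR0 (mul_ne_zero hB0 hC0),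
      Nat.factorization_mul hB0 hC0] at h1
    simp only [Finsupp.coe_add, Pi.add_apply] at h1
    rw [Nat.factorization_eq_zero_of_not_dvd hpq', Nat.factorization_eq_zero_of_not_dvd hpR] at h1
    omega
  have := Fact.mk hp
  have hx : (q : ZMod p) ≠ 0 := by
    rw [Ne, ZMod.natCast_eq_zero_iff]
    exact hpq
  -- `A` and `B * C` are not both divisible
  have hAB : p ∣ A → ¬ p ∣ (q ^ (m - 1) - 1) * (q ^ (m - 1) + 1) := by
    intro h1 h2
    rw [← sub_one_mul_add_one] at h2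
    have h3 := hA h1
    rw [dvd_pow_sub_one_iff (by omega)] at h2 h3
    refine hno 1 le_rfl (by omega) ?_
    rw [dvd_pow_sub_one_iff (by omega)]
    rw [show 2 * m = 2 * (m - 1) + 2 * 1 by omega, pow_add, h2, one_mul] at h3
    exact h3
  have hBC : p ∣ q ^ (m - 1) - 1 → ¬ p ∣ q ^ (m - 1) + 1 := by
    intro h1 h2
    have h3 : p ∣ (q ^ (m - 1) + 1) - (q ^ (m - 1) - 1) := Nat.dvd_sub h2 h1
    have h4 : (q ^ (m - 1) + 1) - (q ^ (m - 1) - 1) = 2 := by
      have : 1 ≤ q ^ (m - 1) := Nat.one_le_pow _ _ (by omega)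
      omega
    rw [h4] at h3
    exact hp2 ((Nat.prime_dvd_prime_iff_eq hp Nat.prime_two).1 h3)
  by_cases h1 : p ∣ A
  · have h2 := hAB h1
    have h3 : ¬ p ∣ q ^ (m - 1) - 1 := fun h => h2 (h.mul_right _)
    have h4 : ¬ p ∣ q ^ (m - 1) + 1 := fun h => h2 (h.mul_left _)
    rw [Nat.factorization_eq_zero_of_not_dvd h3, Nat.factorization_eq_zero_of_not_dvd h4] at hfac
    exact Or.inl ⟨h1, by omega⟩
  · rw [Nat.factorization_eq_zero_of_not_dvd h1] at hfac
    by_cases h3 : p ∣ q ^ (m - 1) - 1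
    · rw [Nat.factorization_eq_zero_of_not_dvd (hBC h3)] at hfac
      exact Or.inr (Or.inl (by omega))
    · rw [Nat.factorization_eq_zero_of_not_dvd h3] at hfac
      exact Or.inr (Or.inr (by omega))

section

variable {F : Type*} [Field F] [Fintype F]

/-- the element of order `2 p` -/
theorem elt2_two {m p : ℕ} (hm : 4 ≤ m) (hp : p.Prime) (hp2 : p ≠ 2) {ε : ℤ} (hε : ε = 1 ∨ ε = -1)
    (h : p ∣ Fintype.card F ∨ ∃ j, 1 ≤ j ∧ j ≤ m - 2 ∧ p ∣ Fintype.card F ^ (2 * j) - 1) :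
    Elt2 F m ε (2 * p) := by
  have hodd : Odd p := hp.odd_of_ne_two hp2
  have key : ∀ (j : ℕ) (ε₁ : ℤ), 1 ≤ j → j ≤ m - 2 → (ε₁ = 1 ∨ ε₁ = -1) → Elt F j ε₁ p → Elt2 F m ε (2 * p) := by
    intro j ε₁ hj hjm hε₁ he
    have h4 : Elt F (m - j) (ε₁ * ε) 4 := elt_four (by omega) (by
      rcases hε with rfl | rfl <;> rcases hε₁ with rfl | rfl <;> simp)
    have h5 := he.prod_two hj hodd h4 ⟨2, rfl⟩
    rw [show j + (m - j) = m by omega, show ε₁ * (ε₁ * ε) = ε by
      rcases hε₁ with rfl | rfl <;> simp, show 4 / 2 = 2 from rfl,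
      (Nat.coprime_two_right.2 hodd).lcm_eq_mul, mul_comm p 2] at h5
    exact h5
  rcases h with h | ⟨j, hj, hjm, h⟩
  · obtain ⟨r, hr⟩ := CharP.exists F
    obtain ⟨n, hr', hn⟩ := FiniteField.card F r
    have : p = r := (Nat.prime_dvd_prime_iff_eq hp hr').1 (hp.dvd_of_dvd_pow (hn ▸ h))
    subst this
    exact key 2 1 (by omega) (by omega) (Or.inl rfl) (elt_two_char hp)
  · rw [sub_one_mul_add_one, hp.dvd_mul] at h
    rcases h with h | h
    · exact key j 1 hj hjm (Or.inl rfl) (elt_tor_plus hj (by rwa [Nat.card_eq_fintype_card]))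
    · exact key j (-1) hj hjm (Or.inr rfl) (elt_tor_minus hj (by rwa [Nat.card_eq_fintype_card]))

/-- **T-NA4, plus** -/
theorem na_oplus {n : ℕ} (hn : 4 ≤ n) : NA (POmega F (quadFormPlus n F)) := by
  classical
  intro p hp h5 hpT hnc
  have hfin : Finite (POmega F (quadFormPlus n F)) := Quotient.finite _
  have hp2 : p ≠ 2 := by omega
  have hodd : Odd p := hp.odd_of_ne_two hp2
  by_cases h : p ∣ Fintype.card F ∨ ∃ j, 1 ≤ j ∧ j ≤ n - 2 ∧ p ∣ Fintype.card F ^ (2 * j) - 1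
  · exact (elt2_two hn hp hp2 (Or.inl rfl) h).plus hn
  · exfalso
    push Not at h
    obtain ⟨h1, h2⟩ := h
    have hq : 2 ≤ Fintype.card F := Fintype.one_lt_card
    have hc := S0293.result (F := F) rfl n hn
    have hcyc : ∃ P : Sylow p (POmega F (quadFormPlus n F)), IsCyclic ↥P := by
      have hpw : ∀ N : ℕ, Odd (p ^ N.factorization p) := fun N => hodd.pow
      rcases fac_le hp hq h1 hn hp2 h2 (A := Fintype.card F ^ n - 1) (fun h => by
          rw [sub_one_mul_add_one]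
          exact h.mul_right _) (pow_sub_ne hq (by omega)) (Nat.gcd_pos_of_pos_left _ (by norm_num)).ne' hc hpT
          Nat.card_pos.ne' with ⟨-, h3⟩ | h3 | h3
      · refine exists_cyc_sylow hp h3 (Elt2.plus hn ?_)
        exact (elt_tor_plus (k := n) (by omega) (by
          rw [Nat.card_eq_fintype_card]; exact Nat.ordProj_dvd _ _)).two (by omega) (hpw _)
      · refine exists_cyc_sylow hp h3 (Elt2.plus hn ?_)
        have h4 := ((elt_tor_plus (F := F) (k := n - 1) (by omega) (by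
          rw [Nat.card_eq_fintype_card]; exact Nat.ordProj_dvd _ _)).add (m := 1) le_rfl (Or.inl rfl)).two (by omega)
          (hpw (Fintype.card F ^ (n - 1) - 1))
        rwa [show n - 1 + 1 = n by omega, one_mul] at h4
      · refine exists_cyc_sylow hp h3 (Elt2.plus hn ?_)
        have h4 := ((elt_tor_minus (F := F) (k := n - 1) (by omega) (by
          rw [Nat.card_eq_fintype_card]; exact Nat.ordProj_dvd _ _)).add (m := 1) le_rfl (Or.inr rfl)).two (by omega)
          (hpw (Fintype.card F ^ (n - 1) + 1))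
        rwa [show n - 1 + 1 = n by omega, neg_mul_neg, one_mul] at h4
    obtain ⟨P, hP⟩ := hcyc
    exact hnc P hP

/-- **T-NA4, minus** -/
theorem na_ominus {n : ℕ} (hn : 4 ≤ n) {a b : F}
    (hab : ∀ z₁ z₂ : F, z₁ ^ 2 + a * z₁ * z₂ + b * z₂ ^ 2 = 0 → z₁ = 0 ∧ z₂ = 0) :
    NA (POmega F (quadFormMinus (n - 1) F a b)) := by
  classical
  intro p hp h5 hpT hnc
  have hfin : Finite (POmega F (quadFormMinus (n - 1) F a b)) := Quotient.finite _
  have hp2 : p ≠ 2 := by omega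
  have hodd : Odd p := hp.odd_of_ne_two hp2
  by_cases h : p ∣ Fintype.card F ∨ ∃ j, 1 ≤ j ∧ j ≤ n - 2 ∧ p ∣ Fintype.card F ^ (2 * j) - 1
  · exact (elt2_two hn hp hp2 (Or.inr rfl) h).minus hn hab
  · exfalso
    push Not at h
    obtain ⟨h1, h2⟩ := h
    have hq : 2 ≤ Fintype.card F := Fintype.one_lt_card
    have hc := S0294.result (F := F) rfl n hn a b hab
    have hcyc : ∃ P : Sylow p (POmega F (quadFormMinus (n - 1) F a b)), IsCyclic ↥P := by
      have hpw : ∀ N : ℕ, Odd (p ^ N.factorization p) := fun N => hodd.pow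
      rcases fac_le hp hq h1 hn hp2 h2 (A := Fintype.card F ^ n + 1) (fun h => by
          rw [sub_one_mul_add_one]
          exact h.mul_left _) (Nat.succ_ne_zero _) (Nat.gcd_pos_of_pos_left _ (by norm_num)).ne' hc hpT
          Nat.card_pos.ne' with ⟨-, h3⟩ | h3 | h3
      · refine exists_cyc_sylow hp h3 (Elt2.minus hn hab ?_)
        exact (elt_tor_minus (k := n) (by omega) (by
          rw [Nat.card_eq_fintype_card]; exact Nat.ordProj_dvd _ _)).two (by omega) (hpw _)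
      · refine exists_cyc_sylow hp h3 (Elt2.minus hn hab ?_)
        have h4 := ((elt_tor_plus (F := F) (k := n - 1) (by omega) (by
          rw [Nat.card_eq_fintype_card]; exact Nat.ordProj_dvd _ _)).add (m := 1) le_rfl (Or.inr rfl)).two (by omega)
          (hpw (Fintype.card F ^ (n - 1) - 1))
        rwa [show n - 1 + 1 = n by omega, one_mul] at h4
      · refine exists_cyc_sylow hp h3 (Elt2.minus hn hab ?_)
        have h4 := ((elt_tor_minus (F := F) (k := n - 1) (by omega) (by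
          rw [Nat.card_eq_fintype_card]; exact Nat.ordProj_dvd _ _)).add (m := 1) le_rfl (Or.inl rfl)).two (by omega)
          (hpw (Fintype.card F ^ (n - 1) + 1))
        rwa [show n - 1 + 1 = n by omega, mul_one] at h4
    obtain ⟨P, hP⟩ := hcyc
    exact hnc P hP

end

end Cfsg.Agent.H379.Cyc
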